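import Mathlib
import Cfsg.Agent.Cl.LinearIso
import Cfsg.Agent.GT.PGroupElemAb
import Cfsg.Agent.Spor.Comp.Iso
import Cfsg.Agent.Spor.Comp.Iso2
import Cfsg.Agent.Spor.FL.Basic
import Cfsg.Agent.Spor.LF.Pair

/-!
# Tools for the normaliser of the elementary abelian group of order eight
-/

set_option autoImplicit false
set_option maxRecDepth 100000

namespace Cfsg.Agent.Spor.LF

open Subgroup MT MulAction FL

theorem map_eq_bot_of_two {L A : Type*} [Group L] [Group A] [IsSimpleGroup A] (hA : ¬ IsPGroup 2 A)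
    {α : L →* A} (hα : Function.Surjective α) {N : Subgroup L} (hN : N.Normal) (h2 : IsPGroup 2 N) {x : L}
    (hx : x ∈ N) : α x = 1 := by
  rcases (hN.map α hα).eq_bot_or_eq_top with c | c
  · exact mem_bot.1 (c ▸ mem_map_of_mem α hx)
  · exact absurd ((c ▸ h2.map α : IsPGroup 2 (⊤ : Subgroup A)).of_equiv topEquiv) hA

theorem exists_prod {L A B : Type*} [Group L] [Finite L] [Group A] [Group B] [IsSimpleGroup A] [IsSimpleGroup B]
    (hA : ¬ IsPGroup 2 A) (hB : ¬ IsPGroup 2 B) (hz : center B = ⊥) {α : L →* A} (hα : Function.Surjective α)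
    {β : α.ker →* B} (hβ : Function.Surjective β) (h2 : IsPGroup 2 β.ker) {p : L} (hp : α p ≠ 1)
    (hc : ∀ c, β (MulAut.conjNormal p c) = β c) : pCore 2 L = β.ker.map α.ker.subtype ∧
      ∃ φ : L →* A × B, Function.Surjective φ ∧ φ.ker = pCore 2 L := by
  have n1 : ∀ (x : L) c, β c = 1 → β (MulAut.conjNormal x c) = 1 := fun x c hx =>
    map_eq_bot_of_two hB hβ (β.normal_ker.map (MulAut.conjNormal x).toMonoidHom (MulAut.conjNormal x).surjective)
      (h2.map _) (mem_map_of_mem _ hx)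
  let S : Subgroup L :=
    { carrier := {x | ∃ b, ∀ c, β (MulAut.conjNormal x c) = b * β c * b⁻¹}
      one_mem' := ⟨1, fun c => by simp⟩
      mul_mem' := fun ⟨a, ha⟩ ⟨b, hb⟩ => ⟨a * b, fun c => by
        rw [map_mul, MulAut.mul_apply, ha, hb]; group⟩
      inv_mem' := fun {x} ⟨a, ha⟩ => ⟨a⁻¹, fun c => by
        have := ha (MulAut.conjNormal x⁻¹ c)
        rw [← MulAut.mul_apply, ← map_mul, mul_inv_cancel, map_one, MulAut.one_apply] at this
        rw [this]; group⟩ }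
  have k1 : ∀ c d : α.ker, β (MulAut.conjNormal (c : L) d) = β c * β d * (β c)⁻¹ := fun c d => by
    rw [← map_inv, ← map_mul, ← map_mul]; rfl
  have hS : S.Normal := ⟨fun x ⟨a, ha⟩ y => by
    obtain ⟨a, rfl⟩ := hβ a
    refine ⟨β (MulAut.conjNormal y a), fun c => ?_⟩
    obtain ⟨d, rfl⟩ := (MulAut.conjNormal (H := α.ker) y).surjective c
    have := n1 y (MulAut.conjNormal x d * (a * d * a⁻¹)⁻¹) (by simp [ha])
    simp only [map_mul, map_inv, mul_inv_eq_one] at this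
    rw [map_mul, map_mul, MulAut.mul_apply, MulAut.mul_apply, map_inv, MulAut.inv_apply_self, this]⟩
  have h3 : S = ⊤ := by
    rw [← comap_map_eq_self (f := α) (H := S) fun c hc => ⟨β ⟨c, hc⟩, k1 ⟨c, hc⟩⟩,
      (hS.map α hα).eq_bot_or_eq_top.resolve_left fun c => hp (mem_bot.1
        (c ▸ mem_map_of_mem α (⟨1, fun c => by simp [hc]⟩ : p ∈ S))), comap_top]
  choose γ hγ using fun x : L => (h3 ▸ mem_top x : x ∈ S)
  have uq : ∀ x b, (∀ c, β (MulAut.conjNormal x c) = b * β c * b⁻¹) → γ x = b := fun x b h => by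
    rw [← inv_mul_eq_one, ← mem_bot, ← hz, mem_center_iff]
    intro y
    obtain ⟨y, rfl⟩ := hβ y
    calc β y * ((γ x)⁻¹ * b) = (γ x)⁻¹ * (γ x * β y * (γ x)⁻¹) * b := by group
      _ = _ := by rw [← hγ, h]; group
  let δ : L →* B := MonoidHom.mk' γ fun x y => uq _ _ fun c => by
    rw [map_mul, MulAut.mul_apply, hγ, hγ]; group
  have k2 : ∀ c : α.ker, δ c = β c := fun c => uq _ _ (k1 c)
  have h4 : (α.prod δ).ker = β.ker.map α.ker.subtype := by
    ext x
    rw [MonoidHom.mem_ker, MonoidHom.prod_apply, Prod.mk_eq_one]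
    exact ⟨fun ⟨a, c⟩ => ⟨⟨x, a⟩, (k2 ⟨x, a⟩).symm.trans c, rfl⟩, fun ⟨y, a, c⟩ => c ▸ ⟨y.2, (k2 y).trans a⟩⟩
  have h5 : pCore 2 L = (α.prod δ).ker := le_antisymm (fun x hx => Prod.ext
    (map_eq_bot_of_two hA hα inferInstance (GT.isPGroup_pCore 2) hx)
    (map_eq_bot_of_two (α := δ) hB (fun b => let ⟨c, hc⟩ := hβ b; ⟨c, (k2 c).trans hc⟩) inferInstance
      (GT.isPGroup_pCore 2) hx)) (le_sSup ⟨inferInstance, h4 ▸ h2.map _⟩)
  refine ⟨h5.trans h4, α.prod δ, fun ⟨a, b⟩ => ?_, h5.symm⟩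
  obtain ⟨x, rfl⟩ := hα a
  obtain ⟨c, hc⟩ := hβ (b * (δ x)⁻¹)
  exact ⟨c * x, by rw [MonoidHom.prod_apply, map_mul, map_mul, k2, hc, show α c = 1 from c.2]; simp⟩

/-- The special linear group of degree three over the field with two elements. -/
abbrev SL32 : Type := Matrix.SpecialLinearGroup (Fin 3) (ZMod 2)

theorem card_SL32 : Nat.card SL32 = 168 := by rw [Cl.card_sl_three]; simp

theorem simple_SL32 : IsSimpleGroup SL32 :=
  have := Cl.psl_fin_isSimpleGroup (F := ZMod 2) (n := 3) (by norm_num) (by norm_num)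
  (Cl.centerQuotEquivOfEqBot (Cl.center_sl_eq_bot_of_card_two (by simp))).symm.isSimpleGroup

theorem not_two_SL32 : ¬ IsPGroup 2 SL32 := fun h => by
  obtain ⟨n, k⟩ := IsPGroup.iff_card.1 h
  rw [card_SL32] at k
  exact absurd (Nat.prime_three.dvd_of_dvd_pow (k ▸ (by norm_num : 3 ∣ 168))) (by norm_num)

theorem center_A6 : center A6 = ⊥ :=
  have := simple_A6
  center_eq_bot_of_simple (a := g6) (b := y6) (by decide +kernel)

section

variable {G : Type*} [Group G] [Finite G]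

theorem exists_alpha {W : Subgroup G} (hW : IsElementaryAbelian 2 W) (h8 : Nat.card W = 8)
    (hc : 168 * Nat.card ↥(normalizer (W : Set G) ⊓ centralizer (W : Set G)) ≤ Nat.card (normalizer (W : Set G))) :
    ∃ α : normalizer (W : Set G) →* SL32, Function.Surjective α ∧ ∀ x, α x = 1 ↔ (x : G) ∈ centralizer (W : Set G) := by
  obtain ⟨ε⟩ := GT.PG.nonempty_mulAut_equiv_GL (p := 2) (n := 3) hW.1 (fun x => Subtype.ext (hW.2 x x.2)) h8
  let α := ((ε.trans (Cl.slEquivGLOfCardTwo (by simp)).symm).toMonoidHom).comp W.normalizerMonoidHom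
  have hk : α.ker = (centralizer (W : Set G)).subgroupOf _ := by
    rw [← normalizerMonoidHom_ker, MonoidHom.ker_comp_of_injective _ _ (MulEquiv.injective _)]
  refine ⟨α, MonoidHom.range_eq_top.1 (eq_top_of_le_card _ ?_), fun x => by
    rw [← MonoidHom.mem_ker, hk, mem_subgroupOf]⟩
  have h1 := α.ker.card_mul_index
  rw [index_ker, hk, ← inf_subgroupOf_left, Nat.card_congr (subgroupOfEquivOfLe inf_le_left).toEquiv, mul_comm] at h1
  rw [card_SL32]
  exact Nat.le_of_mul_le_mul_right (h1 ▸ hc) Nat.card_pos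

theorem le_card_conj {A B K : Subgroup G} {a : G} {i j c : ℕ} (hBA : B ≤ A) (hA : Nat.card A = i + j)
    (hB : Nat.card B = j) (h : ∀ t ∈ A, t ∉ B → ∃ x ∈ K, x * a * x⁻¹ = t)
    (hc : c ≤ Nat.card ↥(K ⊓ centralizer {a})) : i * c ≤ Nat.card K := by
  refine le_card_of_orbit (pt := toCj a) inf_le_left (by rw [stabilizer_toCj]; exact inf_le_right) ?_ hc
  have h1 : ((A : Set G) \ B).ncard = i := by
    rw [Set.ncard_sdiff hBA, ← Nat.card_coe_set_eq, ← Nat.card_coe_set_eq]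
    exact (congrArg₂ _ hA hB).trans (Nat.add_sub_cancel _ _)
  rw [← h1, ← Set.ncard_image_of_injective _ (fun _ _ => toCj_inj.1 : Function.Injective (toCj (G := G)))]
  refine Set.ncard_le_ncard ?_ (Set.finite_range _)
  rintro _ ⟨t, ht, rfl⟩
  obtain ⟨x, hx, c⟩ := h t ht.1 ht.2
  exact ⟨⟨x, hx⟩, smul_toCj_eq.2 c⟩

end

variable {Γ V : Type*} [Group Γ] [AddCommGroup V] [DistribMulAction Γ V] {e : ℕ → V} {b : ℕ → Γ}

/-- The codes of the multiples of the standard singular vector. -/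
def vL (k : ℕ) : List ℕ := [0, 0x955, 0xEAA, 0x7FF].take (2 ^ k)

theorem vL_ok : ∀ k < 3, 0 ∈ vL k ∧ (vL k).Nodup ∧ (vL k).length = 2 ^ k ∧
    ∀ a ∈ vL k, a < 4096 ∧ ∀ c ∈ vL k, a ^^^ c ∈ vL k := by decide +kernel

/-- The subgroups with these codes. -/
def Crd.sub (h : Crd Γ e) (k : Fin 3) : AddSubgroup V where
  carrier := e '' {m | m ∈ vL k}
  zero_mem' := ⟨0, (vL_ok k k.2).1, h.zero⟩
  add_mem' := by
    rintro _ _ ⟨a, ha, rfl⟩ ⟨c, hc, rfl⟩
    exact ⟨_, ((vL_ok k k.2).2.2.2 a ha).2 c hc, h.add a c⟩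
  neg_mem' := fun {v} hv => by rwa [neg_eq_of_add_eq_zero_left (h.md.two v)]

theorem Crd.mem_sub (h : Crd Γ e) {k : Fin 3} {m : ℕ} (hm : m < 4096) : e m ∈ h.sub k ↔ m ∈ vL k :=
  ⟨fun ⟨a, ha, c⟩ => h.inj ((vL_ok k k.2).2.2.2 a ha).1 hm c ▸ ha, fun c => ⟨m, c, rfl⟩⟩

theorem Crd.card_sub (h : Crd Γ e) (k : Fin 3) : Nat.card (h.sub k) = 2 ^ (k : ℕ) := by
  obtain ⟨-, a1, a2, a3⟩ := vL_ok k k.2
  rw [← a2, ← List.toFinset_card_of_nodup a1, ← Set.ncard_coe_finset, List.coe_toFinset]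
  exact (h.inj.mono fun a ha => (a3 a ha).1).ncard_image

/-- Conjugates of the involution `w0`. -/
def jW : ℕ → List ℕ
  | 0 => w0
  | i + 1 => 5 :: jW i ++ [5, 5, 5, 5]

/-- Their rows. -/
noncomputable def jT (l : ℕ) : ℕ → ℕ := force ([0x8ff4aa2551ff72ae1578ae457a2e517a8e54,
  0xbfc6a84abc5662bd1668bd466a3d521563fd, 0xbf36a24aec5962ed1968ed491593f76acd58,
  0xbcf68a4bac6563ad251653df6b2d616b8d64].getD l 0) lin

/-- The sublists of four letters. -/
def sub4 (c : ℕ) : List ℕ := (List.range 4).filter c.testBit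

/-- A basis of the orthogonal complement. -/
def pB : List ℕ := [5, 10, 17, 34, 65, 130, 257, 514, 1027, 2049]

theorem jT_add : allRange 0 4096 (fun m => bor (bB m 0x955) (bor (bB m 0xEAA) (allLt 16 fun c =>
    force (Nat.xor m (traceP jT (sub4 c) m)) fun a => decide (a ∈ vL 2)))) = true := by decide +kernel

theorem pB_perp : allRange 0 4096 (fun m => bor (decide (m ∈ vL 2)) (!allL pB fun a => !bB m a)) = true := by
  decide +kernel

theorem Fr.om_s (h : Fr e b) : b 4 • e 0x955 = e 0xEAA :=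
  (h.tabs 4 (by norm_num) _ (by norm_num)).2.trans (congrArg e (by decide +kernel))

theorem Fr.om_u (h : Fr e b) : b 4 • e 0xEAA = e 0x7FF :=
  (h.tabs 4 (by norm_num) _ (by norm_num)).2.trans (congrArg e (by decide +kernel))

theorem Fr.fix_iff (h : Fr e b) {x : Γ} (hx : x • e 0x955 = e 0x955) :
    x • e 0xEAA = e 0xEAA ↔ x * b 4 = b 4 * x := by
  refine ⟨fun c => (h.conj_w x).resolve_right fun d => ?_, fun c => by
    rw [← h.om_s, ← mul_smul, c, mul_smul, hx]⟩
  have := congrArg (· • e 0x955) d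
  simp only [mul_smul, hx, h.om_s, h.om_u, c] at this
  exact absurd (h.crd.inj (by norm_num) (by norm_num) this) (by norm_num)

theorem Nrm.exists_move {E : Subgroup Γ} (n : Nrm e E) (h : Fr e b) : ∃ x ∈ E, x • e 0xEAA = e 0x7FF :=
  let ⟨x, h1, _, h2⟩ := n.exists_outer h
  ⟨x, h1, (h2 _ (by norm_num)).2.trans (congrArg e (by decide +kernel))⟩

theorem Nrm.lin {E : Subgroup Γ} (n : Nrm e E) (h : Fr e b) :
    Nat.card ↥(E ⊓ stabilizer Γ (e 0xEAA)) = 16 ∧ ∀ x ∈ E ⊓ stabilizer Γ (e 0xEAA),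
      (∀ m < 4096, bB m 0x955 = false → bB m 0xEAA = false → e m + x • e m ∈ h.crd.sub 2) ∧
      ((∀ m ∈ pB, x • e m = e m) → x = 1) := by
  have := h.finite
  have tb : Tabs e 4096 jT (fun l => evalW b (jW l)) 4 := fun l hl => by
    rw [jT, force_eq]
    exact h.crd.tab_rows h.tabs (by revert l; decide +kernel)
  have g5 : (b 5)⁻¹ = evalW b [5, 5, 5, 5] := by
    rw [inv_eq_iff_mul_eq_one]; exact h.rel [5, 5, 5, 5, 5] []
  have mE : ∀ l, evalW b (jW l) ∈ E := fun l => by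
    induction l with
    | zero => exact n.w0_mem h
    | succ l ih =>
      rw [jW, evalW_append, evalW_cons, ← g5]
      exact n.norm _ ((h.tabs 5 (by norm_num) _ (by norm_num)).2.trans (congrArg e (by decide +kernel))) _ ih
  have lw : ∀ c < 16, lettersLt 4 (sub4 c) = true := by decide +kernel
  let F : Fin 16 → ↥(E ⊓ stabilizer Γ (e 0xEAA)) := fun c =>
    ⟨evalW (fun l => evalW b (jW l)) (sub4 c), evalW_mem fun l _ => mE l,
      tb.smul (lw c c.2) (by norm_num) (by revert c; decide +kernel)⟩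
  have hF : Function.Injective F := fun c d hc => by
    obtain ⟨a1, a2⟩ := tb.evalW (lw c c.2) 1 (by norm_num)
    obtain ⟨a3, a4⟩ := tb.evalW (lw d d.2) 1 (by norm_num)
    have k : ∀ c d : Fin 16, traceP jT (sub4 c) 1 = traceP jT (sub4 d) 1 → c = d := by decide +kernel
    exact k c d (h.crd.inj a1 a3 (by rw [← a2, ← a4]; exact congrArg (fun t => t.1 • e 1) hc))
  obtain ⟨y, y1, y2⟩ := n.exists_move h
  have y3 : y ∉ E ⊓ stabilizer Γ (e 0xEAA) := fun c => absurd
    (h.crd.inj (by norm_num) (by norm_num) (y2.symm.trans (mem_stabilizer_iff.1 c.2))) (by norm_num)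
  have hB := hF.bijective_of_nat_card_le ((card_le_half inf_le_left y1 y3 (c := 16) (n.card_eq h)).2.trans
    (by simp))
  refine ⟨by rw [← Nat.card_eq_of_bijective F hB]; simp, fun x hx => ?_⟩
  obtain ⟨c, hc⟩ := hB.2 ⟨x, hx⟩
  obtain rfl : evalW (fun l => evalW b (jW l)) (sub4 c) = x := congrArg Subtype.val hc
  have t := tb.evalW (lw c c.2)
  refine ⟨fun m hm h1 h2 => ?_, fun h1 => ?_⟩
  · have := allRange_zero jT_add m hm
    simp only [h1, h2, bor_iff, Bool.false_eq_true, false_or, allLt_iff, force_eq, decide_eq_true_eq] at this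
    rw [(t m hm).2, ← h.crd.add]
    exact ⟨_, this c c.2, rfl⟩
  · have k : ∀ c : Fin 16, (∀ m ∈ pB, traceP jT (sub4 c) m = m) → sub4 c = [] := by decide +kernel
    have lt : ∀ m ∈ pB, m < 4096 := by decide
    rw [k c fun m hm => h.crd.inj (t m (lt m hm)).1 (lt m hm) ((t m (lt m hm)).2.symm.trans (h1 m hm))]
    rfl

end Cfsg.Agent.Spor.LF
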