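import Mathlib
import Cfsg.Agent.GT.PGroupFrattini
import Cfsg.Agent.Spor.LF.Eight

/-!
# The normaliser of the elementary abelian group of order eight
-/

set_option autoImplicit false
set_option maxRecDepth 100000
set_option linter.unusedSectionVars false

namespace Cfsg.Agent.Spor.LF

open Subgroup MT MulAction
open scoped commutatorElement

variable {G Γ V : Type*} [Group G] [Finite G] [Group Γ] [AddCommGroup V] [DistribMulAction Γ V]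

theorem le_norm_of_es {Q W : Subgroup G} {z : G} (h : ES2 Q z) (hW : W ≤ Q) (hz : z ∈ W) :
    Q ≤ normalizer (W : Set G) := fun q hq => mem_normalizer_fintype fun v hv => by
  rcases h.aes.conj_eq hq (hW hv) with c | c <;> rw [c]
  exacts [hv, mul_mem hz hv]

/-- A pair of extraspecial groups in standard position. -/
structure Std (Q R : Subgroup G) (z s : G) (π : centralizer ({z} : Set G) →* Γ) (r : V → G) (e : ℕ → V)
    (b : ℕ → Γ) : Prop where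
  h : EData Q z π r
  f : Fr e b
  hp : ESPair Q R z s
  hs : Eqv z s (r (e 0x955))

namespace Std

variable {Q R : Subgroup G} {z s : G} {π : centralizer ({z} : Set G) →* Γ} {r : V → G} {e : ℕ → V} {b : ℕ → Γ}
  (d : Std Q R z s π r e b)

/-- The elementary abelian groups of orders 2, 4, 8. -/
def W (k : Fin 3) : Subgroup G := d.h.pre (d.f.crd.sub k)

/-- The largest normal 2-subgroup of the normaliser. -/
def T : Subgroup G := centralizer (d.W 2 : Set G) ⊓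
  (((R.subgroupOf (centralizer {z})).map π).comap π).map (centralizer {z}).subtype

theorem card_W (k : Fin 3) : Nat.card (d.W k) = 2 * 2 ^ (k : ℕ) := by
  rw [W, d.h.card_pre, d.f.crd.card_sub]

theorem mem_W {k : Fin 3} {x : G} : x ∈ d.W k ↔ ∃ m ∈ vL k, Eqv z x (r (e m)) :=
  ⟨fun ⟨_, ⟨m, hm, c⟩, a⟩ => ⟨m, hm, c ▸ a⟩, fun ⟨m, hm, a⟩ => ⟨_, ⟨m, hm, rfl⟩, a⟩⟩

theorem z_mem (k : Fin 3) : z ∈ d.W k := d.h.z_mem_pre _

theorem s_mem : s ∈ d.W 2 := d.mem_W.2 ⟨_, by decide, d.hs⟩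

theorem u_mem : r (e 0xEAA) ∈ d.W 2 := d.mem_W.2 ⟨_, by decide, Eqv.rfl' _ _⟩

theorem W_mono (k : Fin 3) : d.W k ≤ d.W 2 := fun _ hx =>
  let ⟨m, hm, a⟩ := d.mem_W.1 hx
  d.mem_W.2 ⟨m, (by decide +kernel : ∀ k : Fin 3, ∀ m ∈ vL k, m ∈ vL (2 : Fin 3)) k m hm, a⟩

theorem sub_le {A : AddSubgroup V} (h1 : e 0x955 ∈ A) (h2 : e 0xEAA ∈ A) : d.f.crd.sub 2 ≤ A := by
  rintro _ ⟨m, hm, rfl⟩
  rcases (by decide +kernel : ∀ m ∈ vL (2 : Fin 3), m = 0 ∨ m = 0x955 ∨ m = 0xEAA ∨ m = 0x955 ^^^ 0xEAA) m hm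
    with rfl | rfl | rfl | rfl
  exacts [d.f.crd.zero ▸ zero_mem A, h1, h2, d.f.crd.add _ _ ▸ add_mem h1 h2]

theorem W_le {K : Subgroup G} (h0 : z ∈ K) (h1 : s ∈ K) (h2 : r (e 0xEAA) ∈ K) : d.W 2 ≤ K :=
  fun _ ⟨_, hv, a⟩ => (EData.mem_of_eqv' h0 a).2
    (d.sub_le (A := d.h.im K h0) ((EData.mem_of_eqv' h0 d.hs).1 h1) h2 hv)

include d in
theorem u_mem_R : r (e 0xEAA) ∈ R := by
  obtain ⟨y, hy, c⟩ := (d.h.nrm d.hp d.hs).w0_mem d.f
  have h1 := d.h.eqv_mul (Eqv.rfl' z (r (e 257))) (d.h.eqv_conj (d.h.es.aes.eqv_inv (d.h.r_mem (e 257))) y)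
  obtain ⟨a1, a2⟩ := d.f.tabs.evalW (w := w0) (by decide +kernel) 257 (by norm_num)
  rw [c, a2, ← d.f.crd.add, show 257 ^^^ traceP lT w0 257 = 0xEAA by decide +kernel] at h1
  refine (EData.mem_of_eqv' d.hp.z_mem h1).1 ?_
  have h2 := d.hp.lgR.norm (r (e 257)) ((d.h.comm_iff d.f (by norm_num) (by norm_num) d.hs (Eqv.rfl' _ _)).2
    (by decide +kernel)) y hy
  simpa only [mul_assoc] using mul_mem h2 (inv_mem (show (y : G) ∈ R from hy))

theorem W_le_R : d.W 2 ≤ R := d.W_le d.hp.z_mem d.hp.esR.z_mem d.u_mem_R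

theorem W_le_QR : d.W 2 ≤ Q ⊓ R := le_inf (d.h.pre_le _) d.W_le_R

theorem elem : IsElementaryAbelian 2 (d.W 2) :=
  ⟨⟨⟨fun x y => Subtype.ext (d.hp.E_comm (d.W_le_QR x.2) (d.W_le_QR y.2))⟩⟩,
    fun x hx => by rw [pow_two, d.hp.E_sq (d.W_le_QR hx)]⟩

theorem mem_C {x : G} : x ∈ centralizer (d.W 2 : Set G) ↔
    z * x = x * z ∧ s * x = x * s ∧ r (e 0xEAA) * x = x * r (e 0xEAA) :=
  ⟨fun c => ⟨c _ (d.z_mem 2), c _ d.s_mem, c _ d.u_mem⟩, fun ⟨a1, a2, a3⟩ _ hv =>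
    mem_centralizer_singleton_iff.1 (d.W_le (K := centralizer {x}) (mem_centralizer_singleton_iff.2 a1)
      (mem_centralizer_singleton_iff.2 a2) (mem_centralizer_singleton_iff.2 a3) hv)⟩

theorem mem_N {x : centralizer ({z} : Set G)} {m n : ℕ} (h1 : π x • e 0x955 = e m) (h2 : π x • e 0xEAA = e n)
    (hm : m ∈ vL 2 := by decide) (hn : n ∈ vL 2 := by decide) : (x : G) ∈ normalizer (d.W 2 : Set G) :=
  mem_normalizer_fintype fun _ hv => d.W_le (K := (d.W 2).comap (MulAut.conj (x : G)).toMonoidHom)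
    (by change x * z * (x : G)⁻¹ ∈ d.W 2; rw [← EData.zc x, mul_inv_cancel_right]; exact d.z_mem 2)
    (d.mem_W.2 ⟨m, hm, h1 ▸ d.h.eqv_conj d.hs x⟩) (d.mem_W.2 ⟨n, hn, h2 ▸ d.h.eqv_conj (Eqv.rfl' _ _) x⟩) hv

include d in
theorem s_ne : e 0x955 ≠ 0 := d.h.ne_zero d.hp d.hs

include d in
theorem exists_lift {g : Γ} {t : G} (hg : g • e 0x955 = e 0x955) (ht : Eqv z t (r (g • e 0xEAA))) :
    ∃ x : centralizer ({z} : Set G), π x = g ∧ s * x = x * s ∧ x * r (e 0xEAA) * (x : G)⁻¹ = t := by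
  obtain ⟨x, rfl, hx⟩ := d.h.exists_comm d.hs d.s_ne hg
  rcases (d.h.eqv_conj (Eqv.rfl' _ _) x).trans d.h.zz (ht.symm d.h.zz) with c | c
  · exact ⟨x, rfl, hx, c⟩
  · let q : centralizer ({z} : Set G) := ⟨r (e 1), mem_centralizer_singleton.2 (d.h.es.z_comm _ (d.h.r_mem _))⟩
    have h1 : s * q = q * s :=
      (d.h.comm_iff d.f (by norm_num) (by norm_num) d.hs (Eqv.rfl' _ _)).2 (by decide +kernel)
    have h2 : q * r (e 0xEAA) * (q : G)⁻¹ = z * r (e 0xEAA) := d.h.es.aes.conj_of_ne (d.h.r_mem _) (d.h.r_mem _)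
      (mt (d.h.comm_iff d.f (by norm_num) (by norm_num) (Eqv.rfl' _ _) (Eqv.rfl' _ _)).1 (by decide +kernel))
    refine ⟨x * q, by rw [map_mul, (d.h.ker q).2 (d.h.r_mem _), mul_one],
      by rw [coe_mul, ← mul_assoc, hx, mul_assoc, h1, mul_assoc], ?_⟩
    calc (x * q : G) * r (e 0xEAA) * (x * q : G)⁻¹ = x * (q * r (e 0xEAA) * (q : G)⁻¹) * (x : G)⁻¹ := by group
      _ = z * (x * r (e 0xEAA) * (x : G)⁻¹) := by rw [h2, ← mul_assoc, ← EData.zc x]; group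
      _ = t := by rw [c, d.h.es.z_mul_z_mul]

theorem exists_lift' {g : Γ} (hg : g • e 0x955 = e 0x955) (hu : g • e 0xEAA = e 0xEAA) :
    ∃ x : centralizer ({z} : Set G), π x = g ∧ (x : G) ∈ centralizer (d.W 2 : Set G) :=
  let ⟨x, a1, a2, a3⟩ := d.exists_lift hg (hu.symm ▸ Eqv.rfl' z (r (e 0xEAA)))
  ⟨x, a1, d.mem_C.2 ⟨EData.zc x, a2, (mul_inv_eq_iff_eq_mul.1 a3).symm⟩⟩

theorem lev3 : ∀ t ∈ d.W 2, t ∉ d.W 1 → ∃ x ∈ normalizer (d.W 2 : Set G) ⊓ centralizer {z} ⊓ centralizer {s},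
    x * r (e 0xEAA) * x⁻¹ = t := fun t h2 h1 => by
  obtain ⟨m, hm, a⟩ := d.mem_W.1 h2
  obtain ⟨g, g1, g2⟩ : ∃ g : Γ, g • e 0x955 = e 0x955 ∧ g • e 0xEAA = e m := by
    have : m ∈ vL (1 : Fin 3) ∨ m = 0xEAA ∨ m = 0x7FF := by clear a; revert m; decide +kernel
    rcases this with c | rfl | rfl
    · exact absurd (d.mem_W.2 ⟨m, c, a⟩) h1
    · exact ⟨1, one_smul _ _, one_smul _ _⟩
    · obtain ⟨g, g1, g2⟩ := (d.h.nrm d.hp d.hs).exists_move d.f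
      exact ⟨g, (d.h.nrm d.hp d.hs).le g1, g2⟩
  obtain ⟨x, rfl, a2, a3⟩ := d.exists_lift g1 (g2 ▸ a)
  exact ⟨x, ⟨⟨d.mem_N g1 g2 (hn := hm), x.2⟩, mem_centralizer_singleton.2 a2⟩, a3⟩

theorem lev2 : ∀ t ∈ d.W 2, t ∉ d.W 0 → ∃ x ∈ normalizer (d.W 2 : Set G) ⊓ centralizer {z},
    x * s * x⁻¹ = t := fun t h2 h1 => by
  obtain ⟨m, hm, a⟩ := d.mem_W.1 h2
  have m0 : e m ≠ 0 := fun c => h1 ⟨_, zero_mem _, c ▸ a⟩
  obtain ⟨g, n, hn, g1, g2⟩ : ∃ g : Γ, ∃ n ∈ vL 2, g • e 0x955 = e m ∧ g • e 0xEAA = e n := by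
    have : m = 0 ∨ m = 0x955 ∨ m = 0xEAA ∨ m = 0x7FF := by clear a m0; revert m; decide +kernel
    rcases this with rfl | rfl | rfl | rfl
    · exact absurd d.f.crd.zero m0
    · exact ⟨1, _, by decide, one_smul _ _, one_smul _ _⟩
    · exact ⟨_, _, by decide, d.f.om_s, d.f.om_u⟩
    · refine ⟨b 4 * b 4, 0x955, by decide, by rw [mul_smul, d.f.om_s, d.f.om_u], ?_⟩
      rw [← d.f.om_s, ← mul_smul, ← pow_two, ← pow_succ, d.f.cube, one_smul]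
  obtain ⟨x, rfl, c⟩ := d.h.exists_conj d.hs a m0 g1
  exact ⟨x, ⟨d.mem_N g1 g2 hm hn, x.2⟩, c⟩

theorem mem_W0 {x : G} : x ∈ d.W 0 ↔ x = 1 ∨ x = z := by
  rw [← d.h.eqv_zero, ← d.f.crd.zero, d.mem_W, show vL (0 : Fin 3) = [0] from rfl]
  simp only [List.mem_singleton, exists_eq_left]

theorem lev1 : ∀ t ∈ d.W 2, t ∉ (⊥ : Subgroup G) → ∃ x ∈ normalizer (d.W 2 : Set G), x * z * x⁻¹ = t :=
  fun t h2 h1 => by
  by_cases c : t = z
  · exact ⟨1, one_mem _, by simp [c]⟩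
  obtain ⟨a, ha, -, c1⟩ := d.hp.symm.exists_q
  obtain ⟨x, hx, c2⟩ := d.lev2 t h2 fun k => (d.mem_W0.1 k).elim h1 c
  obtain ⟨y, hy, c3⟩ := d.lev2 (s * z) (mul_mem d.s_mem (d.z_mem 2)) fun k =>
    (d.mem_W0.1 ((mul_mem_cancel_right (d.z_mem 0)).1 k)).elim d.hp.esR.z_ne d.hp.ne.symm
  refine ⟨x * y⁻¹ * a, mul_mem (mul_mem hx.1 (inv_mem hy.1)) (le_norm_of_es d.hp.esR d.W_le_R d.s_mem ha), ?_⟩
  calc x * y⁻¹ * a * z * (x * y⁻¹ * a)⁻¹ = x * (y⁻¹ * (a * z * a⁻¹) * y) * x⁻¹ := by group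
    _ = t := by rw [c1, ← c3, ← c2]; group

theorem index_ge : 168 * Nat.card ↥(normalizer (d.W 2 : Set G) ⊓ centralizer (d.W 2 : Set G)) ≤
    Nat.card (normalizer (d.W 2 : Set G)) :=
  le_trans (by omega) (le_card_conj (i := 7) (j := 1) bot_le (d.card_W 2) card_bot d.lev1
    (le_card_conj (i := 6) (j := 2) (d.W_mono 0) (d.card_W 2) (d.card_W 0) d.lev2
      (le_card_conj (i := 4) (j := 4) (d.W_mono 1) (d.card_W 2) (d.card_W 1) d.lev3
        (card_le_of_le (H := normalizer (d.W 2 : Set G) ⊓ centralizer (d.W 2 : Set G)) fun _ hx =>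
          let ⟨a1, a2, a3⟩ := d.mem_C.1 hx.2
          ⟨⟨⟨hx.1, mem_centralizer_singleton.2 a1⟩, mem_centralizer_singleton.2 a2⟩,
            mem_centralizer_singleton.2 a3⟩))))

theorem fix_su {x : centralizer ({z} : Set G)} (hx : (x : G) ∈ centralizer (d.W 2 : Set G)) :
    π x • e 0x955 = e 0x955 ∧ π x • e 0xEAA = e 0xEAA :=
  ⟨d.h.smul_of_comm d.hs (d.mem_C.1 hx).2.1, d.h.smul_of_comm (Eqv.rfl' _ _) (d.mem_C.1 hx).2.2⟩

theorem mem_T {x : centralizer ({z} : Set G)} : (x : G) ∈ d.T ↔ (x : G) ∈ centralizer (d.W 2 : Set G) ∧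
    π x ∈ (R.subgroupOf (centralizer {z})).map π :=
  and_congr_right fun _ => mem_map_iff_mem (centralizer ({z} : Set G)).subtype_injective

theorem T_le : d.T ≤ centralizer {z} := fun _ hx => mem_centralizer_singleton.2 (d.mem_C.1 hx.1).1

theorem QC_le : Q ⊓ centralizer (d.W 2 : Set G) ≤ d.T := fun x hx =>
  (d.mem_T (x := ⟨x, mem_centralizer_singleton.2 (d.h.es.z_comm x hx.1)⟩)).2
    ⟨hx.2, by rw [(d.h.ker _).2 hx.1]; exact one_mem _⟩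

theorem W_le_T : d.W 2 ≤ d.T := fun _ hx => d.QC_le ⟨d.h.pre_le _ hx, fun _ hy =>
  d.hp.E_comm (d.W_le_QR hy) (d.W_le_QR hx)⟩

theorem r_mem_C {m : ℕ} {a : G} (hm : m < 4096) (ha : Eqv z a (r (e m))) : a ∈ centralizer (d.W 2 : Set G) ↔
    bB m 0x955 = false ∧ bB m 0xEAA = false := by
  rw [d.mem_C, ← d.h.comm_iff d.f hm (by norm_num) ha d.hs,
    ← d.h.comm_iff d.f hm (by norm_num) ha (Eqv.rfl' _ _), eq_comm (a := a * s), eq_comm (a := a * _)]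
  exact and_iff_right (d.h.es.z_comm _ (d.h.mem_of_eqv ha))

theorem pB_mem {m : ℕ} (hm : m ∈ pB) : m < 4096 ∧ r (e m) ∈ d.T := by
  have : m < 4096 ∧ bB m 0x955 = false ∧ bB m 0xEAA = false := by revert m; decide +kernel
  exact ⟨this.1, d.QC_le ⟨d.h.r_mem _, (d.r_mem_C this.1 (Eqv.rfl' _ _)).2 this.2⟩⟩

theorem sq_mem {x : G} (hx : x ∈ d.T) : x * x ∈ d.W 2 := by
  lift x to centralizer ({z} : Set G) using d.T_le hx
  obtain ⟨h1, y, hy, c⟩ := d.mem_T.1 hx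
  have yR : (y : G) ∈ R := hy
  have yC : (y : G) ∈ centralizer (d.W 2 : Set G) := by
    refine d.mem_C.2 ⟨EData.zc y, d.hp.esR.z_comm _ yR, (mul_inv_eq_iff_eq_mul.1 ?_).symm⟩
    have k := d.h.eqv_conj (Eqv.rfl' z (r (e 0xEAA))) y
    rw [c, (d.fix_su h1).2] at k
    refine k.elim id fun k => (d.hp.esR.aes.conj_eq yR d.u_mem_R).elim id fun k' => ?_
    exact absurd (mul_right_cancel (k.symm.trans k')) d.hp.ne
  obtain ⟨v, hv⟩ := d.h.r_surj _ ((d.h.ker (x * y⁻¹)).1 (by rw [map_mul, map_inv, c, mul_inv_cancel]))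
  obtain ⟨m, hm, rfl⟩ := d.f.crd.surj v
  obtain ⟨a1, a2⟩ := (d.r_mem_C hm hv).1 (mul_mem h1 (inv_mem yC))
  have k1 : _ ∈ d.W 2 := ⟨_, (((d.h.nrm d.hp d.hs).lin d.f).2 (π y) ⟨⟨y, hy, rfl⟩, (d.fix_su yC).2⟩).1 m hm a1 a2,
    d.h.eqv_mul hv (d.h.eqv_conj hv y)⟩
  have k2 : (y : G) * y ∈ d.W 2 := by
    rcases d.hp.esR.sq y yR with k | k <;> rw [k]
    exacts [one_mem _, d.s_mem]
  simpa [mul_assoc] using mul_mem k1 k2

theorem mem_W_of_cent {x : G} (hx : x ∈ d.T) (hc : ∀ y ∈ d.T, y * x = x * y) : x ∈ d.W 2 := by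
  lift x to centralizer ({z} : Set G) using d.T_le hx
  obtain ⟨h1, h2⟩ := d.mem_T.1 hx
  obtain ⟨v, hv⟩ := d.h.r_surj _ ((d.h.ker x).1 ((((d.h.nrm d.hp d.hs).lin d.f).2 (π x)
    ⟨h2, (d.fix_su h1).2⟩).2 fun m hm => d.h.smul_of_comm (Eqv.rfl' _ _) (hc _ (d.pB_mem hm).2)))
  obtain ⟨m, hm, rfl⟩ := d.f.crd.surj v
  refine d.mem_W.2 ⟨m, ?_, hv⟩
  have := allRange_zero pB_perp m hm
  rw [bor_iff, (allL_iff _ _).2 fun a ha => by
    rw [(d.h.comm_iff d.f hm (d.pB_mem ha).1 hv (Eqv.rfl' _ _)).1 (hc _ (d.pB_mem ha).2).symm]; rfl] at this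
  simpa using this

theorem card_T : Nat.card d.T = 2 ^ 15 := by
  have h1 := d.h.card_map (d.T.subgroupOf (centralizer {z}))
  have h2 := d.h.es.card_mul_card_centralizer (A := d.W 2) (d.h.pre_le _) (d.z_mem 2)
  have h3 : (d.T.subgroupOf (centralizer {z})).map π =
      (R.subgroupOf (centralizer {z})).map π ⊓ stabilizer Γ (e 0xEAA) := by
    ext g
    constructor
    · rintro ⟨x, hx, rfl⟩
      exact ⟨(d.mem_T.1 hx).2, (d.fix_su (d.mem_T.1 hx).1).2⟩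
    · rintro ⟨g1, g2⟩
      obtain ⟨x, rfl, hx⟩ := d.exists_lift' ((d.h.nrm d.hp d.hs).le g1) g2
      exact ⟨x, d.mem_T.2 ⟨hx, g1⟩, rfl⟩
  rw [h3, ((d.h.nrm d.hp d.hs).lin d.f).1, map_subgroupOf_eq_of_le d.T_le,
    Nat.card_congr (subgroupOfEquivOfLe d.T_le).toEquiv, show Q ⊓ d.T = Q ⊓ centralizer (d.W 2 : Set G) from
      le_antisymm (inf_le_inf_left _ inf_le_left) (le_inf inf_le_left d.QC_le)] at h1
  rw [show Nat.card (d.W 2) = 8 from d.card_W 2, d.h.card] at h2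
  omega

theorem two_T : IsPGroup 2 d.T := IsPGroup.iff_card.2 ⟨15, d.card_T⟩

theorem center_T : center d.T = (d.W 2).subgroupOf d.T := by
  ext x
  rw [mem_center_iff, mem_subgroupOf]
  exact ⟨fun c => d.mem_W_of_cent x.2 fun y hy => congrArg Subtype.val (c ⟨y, hy⟩),
    fun c y => Subtype.ext (y.2.1 _ c).symm⟩

theorem special (hN : ∀ x ∈ normalizer (d.W 2 : Set G), ∀ y ∈ d.T, x * y * x⁻¹ ∈ d.T) : IsSpecial 2 d.T := by
  have h1 : ∀ y : d.T, y ^ 2 ∈ center d.T := fun y => by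
    rw [d.center_T, pow_two]; exact d.sq_mem y.2
  have h2 : commutator d.T ≤ center d.T := commutator_le.2 fun x _ y _ => by
    rw [show ⁅x, y⁆ = (x * y) ^ 2 * (y⁻¹ * x⁻¹ * y) ^ 2 * y⁻¹ ^ 2 by
      simp only [commutatorElement_def, pow_two]; group]
    exact mul_mem (mul_mem (h1 _) (h1 _)) (h1 _)
  have h3 : center d.T ≤ commutator d.T := fun t ht => by
    rw [d.center_T] at ht
    by_cases c : (t : G) ∈ (⊥ : Subgroup G)
    · rw [show t = 1 from Subtype.ext c]; exact one_mem _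
    obtain ⟨x, hx, c1⟩ := d.lev1 t ht c
    have c2 : r (e 5) * r (e 34) * (r (e 5))⁻¹ = z * r (e 34) := d.h.es.aes.conj_of_ne (d.h.r_mem _) (d.h.r_mem _)
      (mt (d.h.comm_iff d.f (by norm_num) (by norm_num) (Eqv.rfl' _ _) (Eqv.rfl' _ _)).1 (by decide +kernel))
    rw [show t = ⁅(⟨_, hN x hx _ (d.pB_mem (m := 5) (by decide)).2⟩ : d.T),
      ⟨_, hN x hx _ (d.pB_mem (m := 34) (by decide)).2⟩⁆ from Subtype.ext (by
        change _ = ⁅x * r (e 5) * x⁻¹, x * r (e 34) * x⁻¹⁆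
        rw [← conjugate_commutatorElement, commutatorElement_def, c2, mul_inv_cancel_right, c1])]
    exact commutator_mem_commutator (mem_top _) (mem_top _)
  exact ⟨d.two_T, le_antisymm (GT.PG.frattini_le Nat.prime_two h2 h1)
    (h3.trans (GT.PG.commutator_le_frattini d.two_T)), le_antisymm h2 h3⟩

theorem exists_phi : (pCore 2 (normalizer (d.W 2 : Set G))).map (Subgroup.subtype _) = d.T ∧
    ∃ φ : normalizer (d.W 2 : Set G) →* SL32 × A6, Function.Surjective φ ∧ φ.ker = pCore 2 _ := by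
  obtain ⟨α, h1, h2⟩ := exists_alpha d.elem (d.card_W 2) d.index_ge
  obtain ⟨ψ, p1, p2, -, p3, -⟩ := d.f.exists_alt
  obtain ⟨-, β, b1, b2⟩ := (d.h.nrm d.hp d.hs).beta d.f p1 p3
  let ι : α.ker →* centralizer ({z} : Set G) := ((Subgroup.subtype _).comp α.ker.subtype).codRestrict _ fun c =>
    mem_centralizer_singleton.2 (d.mem_C.1 ((h2 c).1 c.2)).1
  have iC : ∀ c, (ι c : G) ∈ centralizer (d.W 2 : Set G) := fun c => (h2 c).1 c.2
  let κ : α.ker →* stabilizer Γ (e 0x955) := (π.comp ι).codRestrict _ fun c => (d.fix_su (iC c)).1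
  have k1 : ∀ c, (β.comp κ) c = 1 ↔ (ι c : G) ∈ d.T := fun c =>
    (b1 (κ c)).trans ((and_iff_right (iC c)).symm.trans d.mem_T.symm)
  obtain ⟨p, hp⟩ := d.h.surj (b 4)
  have pN := d.mem_N (hp ▸ d.f.om_s) (hp ▸ d.f.om_u)
  have := simple_A6
  have := simple_SL32
  obtain ⟨a1, a2⟩ := exists_prod not_two_SL32 not_two_A6 center_A6 h1 (β := β.comp κ) (fun σ => by
      obtain ⟨x, c, hx⟩ := d.exists_lift' (p3 σ) ((d.f.fix_iff (p3 σ)).2 (d.f.comm (p2 σ)))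
      exact ⟨⟨⟨x, centralizer_le_normalizer _ hx⟩, (h2 _).2 hx⟩, (congrArg β (Subtype.ext c)).trans (b2 σ)⟩)
    (fun c => by
      obtain ⟨k, hk⟩ := d.two_T ⟨_, (k1 c).1 c.2⟩
      have hk' := congrArg Subtype.val hk
      exact ⟨k, Subtype.ext (Subtype.ext (Subtype.ext hk'))⟩)
    (p := ⟨p, pN⟩) (fun c => by
      have := (d.fix_su ((h2 _).1 c)).1
      rw [hp, d.f.om_s] at this
      exact absurd (d.f.crd.inj (by norm_num) (by norm_num) this) (by norm_num))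
    fun c => congrArg β (Subtype.ext (by
      change π (p * ι c * p⁻¹) = π (ι c)
      rw [map_mul, map_mul, map_inv, hp, ← (d.f.fix_iff (d.fix_su (iC c)).1).1 (d.fix_su (iC c)).2,
        mul_inv_cancel_right]))
  refine ⟨?_, a2⟩
  rw [a1]
  ext x
  constructor
  · rintro ⟨_, ⟨c, hc, rfl⟩, rfl⟩
    exact (k1 c).1 hc
  · intro hx
    exact ⟨_, ⟨⟨⟨x, centralizer_le_normalizer _ hx.1⟩, (h2 _).2 hx.1⟩, (k1 _).2 hx, rfl⟩, rfl⟩

end Std

end Cfsg.Agent.Spor.LF
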