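import Mathlib
import Cfsg.Agent.F24T.Main
import Cfsg.Agent.Spor.LF.Full

/-!
# The element of order three and its centraliser
-/

set_option autoImplicit false
set_option maxRecDepth 100000

namespace Cfsg.Agent.Spor.LF

open Subgroup MT MulAction
open scoped commutatorElement

section

open Cfsg.Agent.F24T Cfsg.Agent.F24T.Ob Cfsg.Agent.J4T Cfsg.Agent.J4T.Sig TT

variable {G : Type*} [Group G] [Finite G]

theorem conj_vv {z : G} {g l : ℕ → G} (s : F24T.StO z g l) {i : ℕ} (hi : i < 6) (x : ℕ) :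
    l i * vv z g l x * (l i)⁻¹ = vv z g l (linV (tT i) x 11) := by
  have e : eT g l i = l i := if_pos hi
  refine s.x.ob_conj_exact (fun j hj => ?_) x
  rw [← e]
  refine (s.x.ob_conj_eT (by omega) hj).elim id fun ⟨h1, h2, e⟩ => ?_
  have h3 := tT_mid i (by omega) j h2 h1
  have h4 := s.ob_dua_conj (Ob.pow_lt hj) (tT_ne i (by omega) j hj).2.1 (by rwa [vv, gp_two_pow _ hj]) h3.2.2.1
  rw [h3.2.1] at h4
  exact absurd h4 (by decide)

theorem exists_three {z : G} {Q : Subgroup (centralizer ({z} : Set G))} [Q.Normal]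
    (hF : IsOfLargeFischerTypeAt z Q) : ∃ p : centralizer ({z} : Set G), p ^ 3 = 1 ∧ p ∉ Q ∧
      (∀ x, x * p * x⁻¹ * p⁻¹ ∈ Q ∨ x * p * x⁻¹ * (p * p)⁻¹ ∈ Q) ∧
      ∃ a ∈ centralizer {p}, ∃ b ∈ centralizer {p}, ∃ c ∈ centralizer {p}, ∃ d ∈ centralizer {p},
        ((⁅a, b⁆ * ⁅c, d⁆ : centralizer ({z} : Set G)) : G) = z := by
  obtain ⟨g, l', h1, h2⟩ := exists_stX hF
  obtain ⟨l, -, s⟩ := h2.exists_stO
  obtain ⟨π, act, h, -⟩ := s.x.co
  rw [h1] at h
  let L : ℕ → centralizer ({z} : Set G) := fun i => if hi : i < 11 then ⟨l i, VB.lH s.x hi⟩ else 1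
  have eL : ∀ i < 11, (L i : G) = l i := fun i hi => by simp only [L, dif_pos hi]
  have mQ : ∀ x : centralizer ({z} : Set G), (x : G) ∈ Q.map (centralizer {z}).subtype → x ∈ Q :=
    fun x hx => (mem_map_iff_mem (centralizer ({z} : Set G)).subtype_injective).1 hx
  have cz : ∀ x : centralizer ({z} : Set G), Commute z x := fun x => EData.zc x
  have m1 : ∀ j, 1 ≤ j → j < 6 → L 1 * L j ∈ centralizer {L 0} := fun j a1 a2 =>
    mem_centralizer_singleton_iff.2 (Subtype.ext (by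
      have b1 := s.x.l0_inv (i := 1) le_rfl (by norm_num)
      have b2 := s.x.l0_inv a1 a2
      simp only [coe_mul, eL 0 (by norm_num), eL 1 (by norm_num), eL j (by omega)]
      rw [← mul_inv_eq_iff_eq_mul, show l 1 * l j * l 0 * (l 1 * l j)⁻¹ = l 1 * (l j * l 0 * (l j)⁻¹) * (l 1)⁻¹ by
        group, b2, ← conj_inv, b1, inv_inv]))
  have m2 : ∀ j, 6 ≤ j → j < 11 → L j ∈ centralizer {L 0} := fun j a1 a2 =>
    mem_centralizer_singleton_iff.2 (Subtype.ext (by
      simp only [coe_mul, eL 0 (by norm_num), eL j a2]; exact s.x.l0_comm a1 a2))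
  have k : ∀ j, 1 ≤ j → j < 6 → ∀ i, 6 ≤ i → i < 10 → ((⁅L 1 * L j, L i⁆ : centralizer ({z} : Set G)) : G) =
      vv z g l (linV (tT 1) (linV (tT j) (2 ^ i) 11) 11 ^^^ 2 ^ i) := fun j a1 a2 i a3 a4 => by
    have v : vv z g l (2 ^ i) = l i := (gp_two_pow _ (show i < 11 by omega)).trans (by
      rw [vg, if_neg (by omega), if_pos a4])
    rw [s.x.vv_xor, ← conj_vv s (by norm_num), ← conj_vv s a2, v, commutatorElement_def]
    simp only [coe_mul, coe_inv, eL 1 (by norm_num), eL j (by omega), eL i (by omega)]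
    rw [inv_eq_self_of_sq (z := l i) (by rw [← v]; exact VB.vv_self s.x _)]
    group
  refine ⟨L 0, Subtype.ext ?_, fun c => ?_, fun x => ?_, _, m1 3 (by norm_num) (by norm_num), _,
    m2 7 (by norm_num) (by norm_num), _, m1 5 (by norm_num) (by norm_num), _, m2 9 (by norm_num) (by norm_num), ?_⟩
  · rw [coe_pow, eL 0 (by norm_num)]; exact VB.p3 s.x
  · have := congrFun ((h.actp fun _ => 1).symm.trans
      (h.act_of_mem (eL 0 (by norm_num) ▸ mem_map_of_mem _ c) _)) 0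
    exact absurd this (by decide)
  · refine (h.semi x (cz x)).imp (fun c => mQ _ ?_) fun c => mQ _ ?_
    · simp only [coe_mul, coe_inv, eL 0 (by norm_num)]
      refine h.mul_inv_mem (((cz x).mul_right h.pz).mul_right (cz x).inv_right) h.pz fun v => ?_
      rw [h.act_mul ((cz x).mul_right h.pz) (cz x).inv_right, h.act_mul (cz x) h.pz, h.actp, c,
        h.act_act_inv (cz x), h.actp]
    · simp only [coe_mul, coe_inv, eL 0 (by norm_num)]
      refine h.mul_inv_mem (((cz x).mul_right h.pz).mul_right (cz x).inv_right) (h.pz.mul_right h.pz) fun v => ?_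
      rw [h.act_mul ((cz x).mul_right h.pz) (cz x).inv_right, h.act_mul (cz x) h.pz, h.actp, c,
        h.act_act_inv (cz x), h.act_mul h.pz h.pz, h.actp, h.actp, smul_smul]
      rfl
  · rw [coe_mul, k 3 (by norm_num) (by norm_num) 7 (by norm_num) (by norm_num),
      k 5 (by norm_num) (by norm_num) 9 (by norm_num) (by norm_num), ← s.x.vv_xor]
    exact (congrArg _ (by decide +kernel)).trans s.x.vv_z

end

variable {Γ V : Type*} [Group Γ] [AddCommGroup V] [DistribMulAction Γ V] {e : ℕ → V} {b : ℕ → Γ}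

theorem Fr.eq_of_normal (h : Fr e b) {x : Γ} (h3 : x ^ 3 = 1) (h1 : x ≠ 1)
    (hn : ∀ y, y * x * y⁻¹ ∈ zpowers x) : x = b 4 ∨ x * x = b 4 := by
  obtain ⟨K, _, _, hK, θ, hs, hk⟩ := h.psu
  have := simple_psu hK
  have hx : x ∈ genLt b 8 := by
    rw [show x = (x ^ 2) ^ 2 by rw [← pow_mul, show 2 * 2 = 3 + 1 from rfl, pow_succ, h3, one_mul]]
    exact sq_mem_of_index_two h.idx _
  have hN : (zpowers (θ ⟨x, hx⟩)).Normal := ⟨by
    rintro _ ⟨k, rfl⟩ y
    obtain ⟨y, rfl⟩ := hs y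
    obtain ⟨j, hj⟩ := hn y
    refine ⟨j * k, ?_⟩
    simp only [zpow_mul, ← conj_zpow]
    rw [← map_zpow, ← map_mul, ← map_inv, ← map_mul]
    exact congrArg (fun t => θ t ^ k) (Subtype.ext hj)⟩
  have h4 : θ ⟨x, hx⟩ = 1 := by
    rcases hN.eq_bot_or_eq_top with c | c
    · exact zpowers_eq_bot.1 c
    · have c1 := Nat.card_zpowers (θ ⟨x, hx⟩)
      rw [c, Subgroup.card_top, card_psu hK] at c1
      have c2 := orderOf_le_of_pow_eq_one (x := θ ⟨x, hx⟩) (n := 3) (by norm_num) (by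
        rw [← map_pow, show (⟨x, hx⟩ : genLt b 8) ^ 3 = 1 from Subtype.ext h3, map_one])
      omega
  obtain ⟨k, hk⟩ := (isOfFinOrder_iff_pow_eq_one.2 ⟨3, by norm_num, h.cube⟩
    ).mem_powers_iff_mem_zpowers.2 ((hk _).1 h4)
  have h5 : x = b 4 ^ (k % 3) := by rw [pow_mod_three h.cube]; exact hk.symm
  have h6 : k % 3 < 3 := Nat.mod_lt _ (by norm_num)
  interval_cases k % 3
  · exact absurd (by simpa using h5) h1
  · exact Or.inl (by simpa using h5)
  · exact Or.inr (by rw [h5, ← pow_add, show 2 + 2 = 3 + 1 from rfl, pow_succ, h.cube, one_mul])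

theorem Fr.om_add (h : Fr e b) (v : V) : b 4 • v + b 4 • b 4 • v = v := by
  obtain ⟨m, hm, rfl⟩ := h.crd.surj v
  obtain ⟨a1, a2⟩ := h.tabs 4 (by norm_num) m hm
  rw [a2, (h.tabs 4 (by norm_num) _ a1).2, ← h.crd.add]
  exact congrArg e ((nbeq_iff _ _).1 (allRange_zero (len := 4096)
    (f := fun m => force (lT 4 m) fun n => Nat.beq (n ^^^ lT 4 n) m) (by decide +kernel) m hm))

variable {G : Type*} [Group G] {Q : Subgroup G} {z : G} {π : centralizer ({z} : Set G) →* Γ} {r : V → G}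

theorem EData.conj_three (h : EData Q z π r) (f : Fr e b) {x y : centralizer ({z} : Set G)}
    (hx : π x = b 4) (hy : π y = b 4) (x3 : x ^ 3 = 1) (y3 : y ^ 3 = 1) :
    ∃ q, π q = 1 ∧ q * x * q⁻¹ = y := by
  obtain ⟨v, hv⟩ := h.r_surj _ ((h.ker (y * x⁻¹)).1 (by rw [map_mul, map_inv, hx, hy, mul_inv_cancel]))
  let q : centralizer ({z} : Set G) :=
    ⟨r (b 4 • v), mem_centralizer_singleton.2 (h.es.z_comm _ (h.r_mem _))⟩
  refine ⟨q, (h.ker q).2 (h.r_mem _), Subtype.ext ?_⟩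
  have h1 := h.eqv_mul (Eqv.rfl' z (r (b 4 • v))) (h.eqv_conj (h.es.aes.eqv_inv (h.r_mem (b 4 • v))) x)
  rw [hx, f.om_add] at h1
  have h2 : Eqv z ((q * x * q⁻¹ : centralizer ({z} : Set G)) : G) y := by
    simpa [q, mul_assoc] using (h1.trans h.zz (hv.symm h.zz)).mul_right (x : G)
  refine h2.resolve_right fun c => h.es.z_ne ?_
  have h3 := congrArg (· ^ 3) c
  simp only [← coe_pow, conj_pow, x3, (show Commute z y from zc y).mul_pow, y3, coe_one, mul_one,
    mul_inv_cancel] at h3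
  rw [pow_succ, pow_two, h.zz, one_mul] at h3
  exact h3.symm

theorem EData.eq_of_comm_three (h : EData Q z π r) (f : Fr e b) {x : centralizer ({z} : Set G)}
    (hx : π x = b 4) {q : G} (hq : q ∈ Q) (c : q * x = x * q) : q = 1 ∨ q = z := by
  obtain ⟨v, hv⟩ := h.r_surj q hq
  have h1 := h.smul_of_comm hv c
  have h2 := f.om_add v
  rw [hx] at h1
  rw [h1, h1, h.two] at h2
  exact h.eqv_zero.1 (h2 ▸ hv)

end Cfsg.Agent.Spor.LF
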